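import Cfsg.Agent.H34.Chev3

/-!
# The centre and small generating sets of the finite Weyl groups
-/

set_option autoImplicit false

namespace Cfsg.Agent.H40

open H34 Equiv

section center

variable {ι Φ : Type*} [Fintype ι] [DecidableEq ι] {R : RS ι Φ}

theorem central_α {z : Perm Φ} (hz : z ∈ (sgn R).W) {i : ι}
    (h : (sgn R).s i * z = z * (sgn R).s i) :
    z ((sgn R).α i) = (sgn R).α i ∨ z ((sgn R).α i) = (sgn R).neg ((sgn R).α i) := by
  have h1 : (sgn R).s i (z ((sgn R).α i)) = (sgn R).neg (z ((sgn R).α i)) := by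
    rw [← Perm.mul_apply, h, Perm.mul_apply, (sgn R).s_α, (sgn R).map_neg hz]
  by_cases hp : (sgn R).pos (z ((sgn R).α i))
  · left
    by_contra hne
    have := (sgn R).s_pos i _ hp hne
    rw [h1, (sgn R).pos_neg] at this
    exact this hp
  · right
    rw [← (sgn R).pos_neg] at hp
    by_contra hne
    have := (sgn R).s_pos i _ hp fun e =>
      hne (((sgn R).neg_neg _).symm.trans (congrArg (sgn R).neg e))
    rw [(sgn R).s_neg, h1, (sgn R).neg_neg, (sgn R).pos_neg] at *
    exact hp this

theorem central_word (i₀ : ι) (par : ι → ι) (d : ι → ℕ)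
    (hd : ∀ i, i = i₀ ∨ (d (par i) < d i ∧ R.A (par i) i ≠ 0)) {l : List ι}
    (h : ∀ i, (sgn R).s i * (sgn R).word l = (sgn R).word l * (sgn R).s i) :
    l.foldr (sv R) (fun _ => 1) = (fun _ => 1) ∨ l.foldr (sv R) (fun _ => 1) = fun _ => -1 := by
  set v := l.foldr (sv R) (fun _ => 1) with hv
  set z := ((sgn R).word l)⁻¹ with hz
  have hzW : z ∈ (sgn R).W := inv_mem ((sgn R).word_mem_W l)
  have hc : ∀ i, (sgn R).s i * z = z * (sgn R).s i := fun i =>
    (show Commute ((sgn R).s i) ((sgn R).word l) from h i).inv_right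
  have hf : ∀ r, fv R (fun _ => 1) (z r) = fv R v r := congrFun (fv_comp_word_inv R _ l)
  have key : ∀ j, (v j = 1 ∧ ∀ i, v j - v i * R.A i j = 1 - R.A i j) ∨
      (v j = -1 ∧ ∀ i, v j - v i * R.A i j = -(1 - R.A i j)) := fun j => by
    have h1 : ∀ i, fv R (fun _ => 1) (R.σ i (z (R.simple j))) = v j - v i * R.A i j := fun i => by
      have : R.σ i (z (R.simple j)) = z (R.σ i (R.simple j)) :=
        congrArg (fun p : Perm Φ => p (R.simple j)) (hc i)
      rw [this, hf, fv_σ, fv_simple]; rfl
    have h2 : fv R (fun _ => 1) (z (R.simple j)) = v j := by rw [hf, fv_simple]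
    rcases central_α hzW (hc j) with e | e
    · replace e : z (R.simple j) = R.simple j := e
      refine Or.inl ⟨by rw [← h2, e, fv_simple], fun i => ?_⟩
      rw [← h1, e, fv_σ, fv_simple, sv, one_mul]
    · replace e : z (R.simple j) = R.neg (R.simple j) := e
      refine Or.inr ⟨by rw [← h2, e, fv_neg, fv_simple], fun i => ?_⟩
      rw [← h1, e, fv_σ, fv_neg, fv_simple, sv, one_mul]
  have hall : ∀ m i, d i = m → v i = v i₀ := by
    intro m
    induction m using Nat.strong_induction_on with
    | _ m ih =>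
      rintro i rfl
      rcases hd i with rfl | ⟨h1, h2⟩
      · rfl
      · rw [← ih _ h1 _ rfl]
        apply mul_right_cancel₀ h2
        rcases key i with ⟨e1, e2⟩ | ⟨e1, e2⟩ <;> have := e2 (par i) <;> rw [e1] at this ⊢ <;>
          linarith
  rcases key i₀ with ⟨e, -⟩ | ⟨e, -⟩
  · left; funext i; rw [hall _ i rfl, e]
  · right; funext i; rw [hall _ i rfl, e]

end center

variable {n : ℕ} {Φ : Type*} {R : RS (Fin n) Φ} {C : List (List ℤ)} {M : CoxeterMatrix (Fin n)}

/-- The action of a word on `ρ^∨`. -/
def rhoAct (n : ℕ) (C : List (List ℤ)) (l : List (Fin n)) : List ℤ :=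
  (actE C (l.map Fin.val) (List.replicate n 1, 0)).1

section

variable (hC : IsCartan R C) (e : (sgn R).W ≃* M.Group) (he : ∀ i, e ((sgn R).sW i) = M.simple i)

include he in
theorem prod_simple_eq (l : List (Fin n)) :
    (l.map M.simple).prod = e ⟨(sgn R).word l, (sgn R).word_mem_W l⟩ := by
  induction l with
  | nil => exact (map_one e).symm
  | cons i l ih => rw [List.map_cons, List.prod_cons, ih, ← he, ← map_mul]; rfl

include he in
theorem exists_prod_simple (g : M.Group) : ∃ l : List (Fin n), (l.map M.simple).prod = g := by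
  obtain ⟨⟨w, hw⟩, rfl⟩ := e.surjective g
  obtain ⟨l, rfl⟩ := (sgn R).mem_W_iff.1 hw
  exact ⟨l, prod_simple_eq e he l⟩

include hC he in
theorem prod_simple_eq_iff (l l' : List (Fin n)) :
    (l.map M.simple).prod = (l'.map M.simple).prod ↔ rhoAct n C l = rhoAct n C l' := by
  rw [prod_simple_eq e he, prod_simple_eq e he, e.injective.eq_iff, Subtype.ext_iff]
  exact hC.word_eq_word_iff l l'

include hC he in
theorem mem_center_cases (i₀ : Fin n) (par : Fin n → Fin n) (d : Fin n → ℕ)
    (hd : ∀ i, i = i₀ ∨ (d (par i) < d i ∧ (C.getD (par i) []).getD i 0 ≠ 0)) (l₀ : List (Fin n))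
    (h₀ : rhoAct n C l₀ = List.replicate n (-1)) {z : M.Group} (hz : z ∈ Subgroup.center M.Group) :
    z = 1 ∨ z = (l₀.map M.simple).prod := by
  obtain ⟨l, rfl⟩ := exists_prod_simple e he z
  have hl : (List.replicate n (1 : ℤ), (0 : ℤ)).1.length = n := List.length_replicate
  have := central_word (R := R) i₀ par d (by simpa only [hC.eq] using hd) (l := l) fun i => by
    have := Subgroup.mem_center_iff.1 hz (M.simple i)
    rw [prod_simple_eq e he, ← he, ← map_mul, ← map_mul] at this
    exact congrArg Subtype.val (e.injective this)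
  rw [← toV_replicate, ← hC.toV_actE l hl] at this
  rcases this with h | h
  · left
    exact (prod_simple_eq_iff hC e he l []).2 (toV_inj (hC.length_actE l hl) hl h)
  · right
    rw [prod_simple_eq_iff hC e he, h₀]
    refine toV_inj (hC.length_actE l hl) List.length_replicate (h.trans ?_)
    funext k; simp [toV]

include hC he in
theorem mem_center_of (l₀ : List (Fin n))
    (h : ∀ i, rhoAct n C (i :: l₀) = rhoAct n C (l₀ ++ [i])) :
    (l₀.map M.simple).prod ∈ Subgroup.center M.Group := by
  rw [Subgroup.mem_center_iff]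
  intro g
  obtain ⟨l, rfl⟩ := exists_prod_simple e he g
  refine (Commute.list_prod_left _ _ fun x hx => ?_).eq
  obtain ⟨i, -, rfl⟩ := List.mem_map.1 hx
  have := (prod_simple_eq_iff hC e he _ _).2 (h i)
  simpa [Commute, SemiconjBy] using this

include hC he in
theorem center_two (i₀ : Fin n) (par : Fin n → Fin n) (d : Fin n → ℕ)
    (hd : ∀ i, i = i₀ ∨ (d (par i) < d i ∧ (C.getD (par i) []).getD i 0 ≠ 0)) (k : ℕ)
    (h₀ : rhoAct n C (List.replicate k (List.finRange n)).flatten = List.replicate n (-1))
    (h : ∀ i, rhoAct n C (i :: (List.replicate k (List.finRange n)).flatten) =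
      rhoAct n C ((List.replicate k (List.finRange n)).flatten ++ [i])) :
    Nat.card (Subgroup.center M.Group) = 2 ∧
      Subgroup.center M.Group ≤ Subgroup.zpowers ((List.finRange n).map M.simple).prod := by
  have h1 := fun z => mem_center_cases hC e he i₀ par d hd _ h₀ (z := z)
  have h2 := mem_center_of hC e he _ h
  have h3 : ((List.replicate k (List.finRange n)).flatten.map M.simple).prod ≠ 1 := fun h => by
    have := (prod_simple_eq_iff hC e he _ []).1 h
    rw [h₀] at this
    have := congrArg (fun l : List ℤ => l.getD i₀ 0) this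
    simp [rhoAct, actE] at this
  refine ⟨Nat.card_eq_two_iff.2 ⟨1, ⟨_, h2⟩, fun h => h3 (congrArg Subtype.val h).symm, ?_⟩,
    fun z hz => ?_⟩
  · rw [Set.eq_univ_iff_forall]
    rintro ⟨z, hz⟩
    rcases h1 z hz with rfl | rfl
    · exact Or.inl rfl
    · exact Or.inr rfl
  · rcases h1 z hz with rfl | rfl
    · exact one_mem _
    · rw [List.map_flatten, List.prod_flatten, List.map_replicate, List.map_replicate,
        List.prod_replicate]
      exact Subgroup.npow_mem_zpowers _ _

include hC he in
theorem center_one (i₀ : Fin n) (par : Fin n → Fin n) (d : Fin n → ℕ)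
    (hd : ∀ i, i = i₀ ∨ (d (par i) < d i ∧ (C.getD (par i) []).getD i 0 ≠ 0)) (l₀ : List (Fin n))
    (h₀ : rhoAct n C l₀ = List.replicate n (-1))
    (h : rhoAct n C (i₀ :: l₀) ≠ rhoAct n C (l₀ ++ [i₀])) : Subgroup.center M.Group = ⊥ := by
  rw [eq_bot_iff]
  intro z hz
  rcases mem_center_cases hC e he i₀ par d hd _ h₀ hz with rfl | rfl
  · exact one_mem _
  · refine absurd ((prod_simple_eq_iff hC e he _ _).1 ?_) h
    simpa using Subgroup.mem_center_iff.1 hz (M.simple i₀)

/-- Expansion of a word in the Coxeter element, its inverse and some simple reflections. -/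
def coxExpand (n : ℕ) (T : List (Fin n)) (w : List ℕ) : List (Fin n) :=
  w.flatMap fun g => if g = 0 then List.finRange n else if g = 1 then (List.finRange n).reverse
    else (T[g - 2]?).toList

include he in
theorem prod_simple_reverse (l : List (Fin n)) :
    (l.reverse.map M.simple).prod = ((l.map M.simple).prod)⁻¹ := by
  rw [prod_simple_eq e he, prod_simple_eq e he, ← map_inv]
  exact congrArg e (Subtype.ext ((sgn R).word_reverse l))

include hC he in
theorem mem_of_coxExpand (T : List (Fin n)) (ws : List (List ℕ))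
    (h : ∀ i : Fin n, rhoAct n C (coxExpand n T (ws.getD i [])) = rhoAct n C [i])
    {H : Subgroup M.Group} (hc : ((List.finRange n).map M.simple).prod ∈ H)
    (hT : ∀ i ∈ T, M.simple i ∈ H) : H = ⊤ := by
  have h1 : ∀ w, ((coxExpand n T w).map M.simple).prod ∈ H := fun w => by
    induction w with
    | nil => exact one_mem _
    | cons g w ih =>
      rw [coxExpand, List.flatMap_cons, List.map_append, List.prod_append]
      refine mul_mem ?_ ih
      split_ifs
      · exact hc
      · rw [prod_simple_reverse e he]; exact inv_mem hc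
      · refine H.list_prod_mem fun x hx => ?_
        obtain ⟨i, hi, rfl⟩ := List.mem_map.1 hx
        exact hT i (List.mem_of_getElem? (Option.mem_toList.1 hi))
  rw [eq_top_iff]
  intro g _
  obtain ⟨l, rfl⟩ := exists_prod_simple e he g
  refine H.list_prod_mem fun x hx => ?_
  obtain ⟨i, -, rfl⟩ := List.mem_map.1 hx
  have := h1 (ws.getD i [])
  rw [(prod_simple_eq_iff hC e he _ _).2 (h i)] at this
  simpa using this

include hC he in
theorem exists_gen_refl (T : List (Fin n)) (hT : T.Nodup) (ws : List (List ℕ))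
    (h : ∀ i : Fin n, rhoAct n C (coxExpand n T (ws.getD i [])) = rhoAct n C [i]) :
    ∃ S : Finset M.Group, S.card = T.length ∧
      (∀ t ∈ S, ∃ (g : M.Group) (i : Fin n), t = g * M.simple i * g⁻¹) ∧
      Subgroup.closure (({((List.finRange n).map M.simple).prod} : Set M.Group) ∪ ↑S) = ⊤ := by
  classical
  have hi : Function.Injective M.simple := fun i j hij => by
    rw [← he, ← he] at hij
    exact (sgn R).s_injective (congrArg Subtype.val (e.injective hij))
  refine ⟨(T.map M.simple).toFinset, by rw [List.toFinset_card_of_nodup (hT.map hi),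
    List.length_map], fun t ht => ?_, mem_of_coxExpand hC e he T ws h
      (Subgroup.subset_closure (Or.inl rfl)) fun i hi => Subgroup.subset_closure (Or.inr ?_)⟩
  · obtain ⟨i, -, rfl⟩ := List.mem_map.1 (List.mem_toFinset.1 ht)
    exact ⟨1, i, by simp⟩
  · exact List.mem_toFinset.2 (List.mem_map_of_mem hi)

end

end Cfsg.Agent.H40
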