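import Cfsg.Agent.H41.JU3Defs

/-! Project JU3, pieces NF and CR. -/

set_option autoImplicit false

namespace Cfsg.Agent.H41.JU3

open Subgroup

universe u

section
variable {G : Type u} [Group G] {x y v w : G}

theorem h40nf_vyb (h : Rel x y v w) (b : ℕ) : v * y ^ b = x ^ b * y ^ b * v := by
  have xy : Commute x y := h.xy
  have xv : Commute x v := h.xv
  induction b with
  | zero => simp
  | succ b ih =>
    rw [pow_succ, ← mul_assoc, ih, mul_assoc, h.vy, mul_assoc y v x,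
      ← xv.eq, ← mul_assoc y, ← xy.eq, pow_succ x, mul_assoc (x ^ b) x, ← mul_assoc x (y ^ b),
      (xy.pow_right b).eq]
    simp only [mul_assoc]

theorem h40nf_vcy (h : Rel x y v w) (c : ℕ) : v ^ c * y = y * v ^ c * x ^ c := by
  have xv : Commute x v := h.xv
  induction c with
  | zero => simp
  | succ c ih =>
    rw [pow_succ', mul_assoc, ih, ← mul_assoc, ← mul_assoc, h.vy, mul_assoc (y * v),
      (xv.pow_right c).eq, pow_succ' x]
    simp only [mul_assoc]

theorem h40nf_x (a b c : ℕ) : x * (x ^ a * y ^ b * v ^ c) = x ^ (a + 1) * y ^ b * v ^ c := by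
  rw [pow_succ']; simp only [mul_assoc]

theorem h40nf_y (h : Rel x y v w) (a b c : ℕ) :
    y * (x ^ a * y ^ b * v ^ c) = x ^ a * y ^ (b + 1) * v ^ c := by
  have xy : Commute x y := h.xy
  rw [pow_succ', ← mul_assoc, ← mul_assoc, ← (xy.pow_left a).eq]; simp only [mul_assoc]

theorem h40nf_v (h : Rel x y v w) (a b c : ℕ) :
    v * (x ^ a * y ^ b * v ^ c) = x ^ (a + b) * y ^ b * v ^ (c + 1) := by
  have xv : Commute x v := h.xv
  rw [← mul_assoc, ← mul_assoc, ← (xv.pow_left a).eq, mul_assoc (x ^ a), h40nf_vyb h, pow_add,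
    pow_succ' v]
  simp only [mul_assoc]

theorem h40nf_ex (h : Rel x y v w) {g : G} (hg : g ∈ RR x y v) :
    ∃ a b c : ℕ, g = x ^ a * y ^ b * v ^ c := by
  have k : ∀ s ∈ ({x, y, v} : Set G), ∀ g : G, (∃ a b c : ℕ, g = x ^ a * y ^ b * v ^ c) →
      ∃ a b c : ℕ, s * g = x ^ a * y ^ b * v ^ c := by
    rintro s (rfl | rfl | rfl) _ ⟨a, b, c, rfl⟩
    · exact ⟨_, _, _, h40nf_x a b c⟩
    · exact ⟨_, _, _, h40nf_y h a b c⟩
    · exact ⟨_, _, _, h40nf_v h a b c⟩
  have k3 : ∀ s ∈ ({x, y, v} : Set G), s⁻¹ = s * s := by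
    have : ∀ s : G, s ^ 3 = 1 → s⁻¹ = s * s := fun s hs =>
      inv_eq_of_mul_eq_one_right (by rw [← hs, pow_succ', sq])
    rintro s (rfl | rfl | rfl)
    exacts [this _ h.x3, this _ h.y3, this _ h.v3]
  induction hg using closure_induction_left with
  | one => exact ⟨0, 0, 0, by simp⟩
  | mul_left s hs g _ ih => exact k s hs g ih
  | inv_mul_cancel s hs g _ ih => rw [k3 s hs, mul_assoc]; exact k s hs _ (k s hs g ih)

end

theorem pNF : NF.{u} := by
  intro G _ x y v w h g hg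
  obtain ⟨a, b, c, rfl⟩ := h40nf_ex h hg
  refine ⟨a % 3, b % 3, c % 3, Nat.mod_lt _ (by norm_num), Nat.mod_lt _ (by norm_num),
    Nat.mod_lt _ (by norm_num), ?_⟩
  rw [← pow_eq_pow_mod a h.x3, ← pow_eq_pow_mod b h.y3, ← pow_eq_pow_mod c h.v3]

theorem pCR : CR.{u} := by
  intro G _ _ x y v w h
  have : Fact (Nat.Prime 3) := ⟨Nat.prime_three⟩
  have ox : orderOf x = 3 := orderOf_eq_prime h.x3 h.x1
  have xy : Commute x y := h.xy
  have xv : Commute x v := h.xv
  have inj : ∀ i j : Fin 3, x ^ i.1 = x ^ j.1 → i = j := fun i j e =>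
    Fin.ext (pow_injOn_Iio_orderOf (by simp [ox]) (by simp [ox]) e)
  have mx : x ∈ RR x y v := subset_closure (by simp)
  have my : y ∈ RR x y v := subset_closure (by simp)
  have mv : v ∈ RR x y v := subset_closure (by simp)
  let f : Fin 3 × Fin 3 × Fin 3 → RR x y v := fun p =>
    ⟨x ^ p.1.1 * y ^ p.2.1.1 * v ^ p.2.2.1,
      mul_mem (mul_mem (pow_mem mx _) (pow_mem my _)) (pow_mem mv _)⟩
  have e1 : ∀ a b c : ℕ, x ^ a * y ^ b * v ^ c * y = y * (x ^ a * y ^ b * v ^ c) * x ^ c := by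
    intro a b c
    rw [h40nf_y h, mul_assoc, h40nf_vcy h, pow_succ]; simp only [mul_assoc]
  have e2 : ∀ a b c : ℕ, v * (x ^ a * y ^ b * v ^ c) = x ^ b * (x ^ a * y ^ b * v ^ c) * v := by
    intro a b c
    rw [h40nf_v h, add_comm a, pow_add, pow_succ]; simp only [mul_assoc]
  have hf : Function.Bijective f := by
    constructor
    · rintro ⟨a, b, c⟩ ⟨a', b', c'⟩ e
      have e : x ^ a.1 * y ^ b.1 * v ^ c.1 = x ^ a'.1 * y ^ b'.1 * v ^ c'.1 := congrArg Subtype.val e
      have hc : c = c' := inj _ _ (by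
        have := e1 a b c
        rw [e, e1] at this
        exact (mul_left_cancel this).symm)
      have hb : b = b' := inj _ _ (by
        have := e2 a b c
        rw [e, e2] at this
        exact (mul_right_cancel (mul_right_cancel this)).symm)
      subst hc hb
      rw [inj _ _ (mul_right_cancel (mul_right_cancel e))]
    · rintro ⟨g, hg⟩
      obtain ⟨a, b, c, ha, hb, hc, rfl⟩ := pNF G x y v w h g hg
      exact ⟨(⟨a, ha⟩, ⟨b, hb⟩, ⟨c, hc⟩), rfl⟩
  rw [← Nat.card_eq_of_bijective f hf]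
  simp

end Cfsg.Agent.H41.JU3
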