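import Cfsg.Agent.H40.RecogSC

/-!
# Homomorphisms out of a Chevalley group from the Steinberg relations; the field with two elements
-/

set_option autoImplicit false

namespace Cfsg.Agent.H40

open Cfsg.Lie H34 H35

variable {D : ChevalleyDatum} {K : Type*} [Field K] {Γ : Type*} [Group Γ]

/-- A centreless group generated by elements satisfying the Steinberg relations (A), (B) is a
quotient of the Chevalley group. -/
theorem exists_surjective_of_rel
    (hD : D ∈ [chevG2, chevB2, chevD4, chevF4, chevE6, chevE7, chevE8])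
    (f : ℕ → K → Γ) (hr1 : ∀ r < D.nroots, R1 f r)
    (hr2 : ∀ r < D.nroots, ∀ s < D.nroots, s ≠ r → s ≠ D.neg r → R2 D f r s)
    (gen : ∀ H : Subgroup Γ, (∀ r < D.nroots, ∀ t, f r t ∈ H) → H = ⊤)
    (hZ : Subgroup.center Γ = ⊥) :
    ∃ ψ : D.group K →* Γ, Function.Surjective ψ ∧
      ∀ r < D.nroots, ∀ t, ψ ((cert hD).xg K r t) = f r t := by
  obtain ⟨φ, hφ⟩ := exists_sc_hom (cert hD) f hr1 hr2
  have hs : Function.Surjective φ :=
    MonoidHom.range_eq_top.1 (gen _ fun r hr t => ⟨_, hφ r hr t⟩)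
  obtain ⟨θ, hθ⟩ := exists_sc_proj (cert hD) K
  have hP := sc_parG (adj_of_mem hD (cert hD)) hθ
  have h1 : θ.ker ≤ φ.ker := fun g hg => by
    rw [hP.ker_eq_center, Subgroup.mem_center_iff] at hg
    rw [MonoidHom.mem_ker, ← Subgroup.mem_bot, ← hZ, Subgroup.mem_center_iff]
    intro y
    obtain ⟨y, rfl⟩ := hs y
    rw [← map_mul, hg, map_mul]
  let ψ := θ.liftOfSurjective hP.surjective ⟨φ, h1⟩
  have hψ : ∀ g, ψ (θ g) = φ g := fun g =>
    MonoidHom.liftOfRightInverse_comp_apply _ _ _ _ _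
  refine ⟨ψ, fun y => ?_, fun r hr t => by rw [← hθ r hr, hψ, hφ r hr]⟩
  obtain ⟨g, rfl⟩ := hs y
  exact ⟨θ g, hψ g⟩

section two

variable [DecidableEq K]

/-- Root elements over the field with two elements. -/
def rootF2 (K : Type*) [Field K] [DecidableEq K] (σ : ℕ → Γ) (r : ℕ) (t : K) : Γ :=
  if t = 0 then 1 else σ r

theorem rootF2_R1 (hK : ∀ t : K, t = 0 ∨ t = 1) {σ : ℕ → Γ} {r : ℕ} (h : σ r * σ r = 1) :
    R1 (rootF2 K σ) r := by
  have h2 : (1 : K) + 1 = 0 := by
    rcases hK (1 + 1) with h | h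
    · exact h
    · simp at h
  intro t u
  rcases hK t with rfl | rfl <;> rcases hK u with rfl | rfl <;> simp [rootF2, h2, h]

theorem rootF2_R2 (hK : ∀ t : K, t = 0 ∨ t = 1) {σ : ℕ → Γ} {r s : ℕ}
    (h0 : ∀ c ∈ D.commTerms r s, c.2.2.1 ≠ 0 ∧ c.2.2.2 ≠ 0)
    (h : σ s * σ r = σ r * σ s *
      ((D.commTerms r s).map fun c => if c.2.1 % 2 = 0 then 1 else σ c.1).prod) :
    R2 D (rootF2 K σ) r s := by
  have h2 : (1 : K) + 1 = 0 := by
    rcases hK (1 + 1) with h | h
    · exact h
    · simp at h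
  have : CharP K 2 := CharTwo.of_one_ne_zero_of_two_eq_zero one_ne_zero
    (by rw [← one_add_one_eq_two, h2])
  intro t u
  by_cases h3 : t = 0 ∨ u = 0
  · have : wd (rootF2 K σ) (D.commWord K r s t u) = 1 := by
      refine List.prod_eq_one fun x hx => ?_
      simp only [ChevalleyDatum.commWord, List.map_map, List.mem_map, Function.comp] at hx
      obtain ⟨c, hc, rfl⟩ := hx
      rcases h3 with rfl | rfl <;> simp [rootF2, (h0 c hc).1, (h0 c hc).2]
    rcases h3 with rfl | rfl <;> simp [this, rootF2]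
  · obtain rfl : t = 1 := (hK t).resolve_left fun e => h3 (Or.inl e)
    obtain rfl : u = 1 := (hK u).resolve_left fun e => h3 (Or.inr e)
    simp only [rootF2, one_ne_zero, if_false, h, wd, ChevalleyDatum.commWord, List.map_map]
    congr 2
    refine List.map_congr_left fun c _ => ?_
    simp only [Function.comp, one_pow, mul_one, mul_eq_zero, pow_eq_zero_iff', neg_eq_zero,
      one_ne_zero, false_and, or_false]
    simp only [CharP.intCast_eq_zero_iff K 2, Nat.cast_ofNat, Int.dvd_iff_emod_eq_zero]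

end two

theorem eq_zero_or_one_of_card [Fintype K] (h : Fintype.card K = 2) (t : K) : t = 0 ∨ t = 1 := by
  have := FiniteField.pow_card t
  rw [h] at this
  have h2 : t * (t - 1) = 0 := by linear_combination this
  exact (mul_eq_zero.1 h2).imp id sub_eq_zero.1

end Cfsg.Agent.H40
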