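import Cfsg.Agent.H40.InvOdd
import Cfsg.Agent.H34.Twist4

/-!
# Steinberg's two generators: the torus argument
-/

set_option autoImplicit false

namespace Cfsg.Agent.H40

open Cfsg.Lie H34 H37 Equiv

section good

variable {K : Type*} [Field K]

/-- Multiplication by `u ≠ 1` acts irreducibly on the additive group of `K`. -/
def Good (u : K) : Prop :=
  u ≠ 1 ∧ ∀ A : AddSubgroup K, (∀ x ∈ A, u * x ∈ A) → (∃ c ∈ A, c ≠ 0) → A = ⊤

theorem exists_sq_add_sq' [Finite K] (c : K) : ∃ x y : K, c = x ^ 2 + y ^ 2 := by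
  classical
  have := Fintype.ofFinite K
  by_cases h2 : ringChar K = 2
  · obtain ⟨x, hx⟩ := FiniteField.isSquare_of_char_two h2 c
    exact ⟨x, 0, by rw [hx]; ring⟩
  · obtain ⟨x, y, hxy⟩ := FiniteField.exists_root_sum_quadratic
      (f := (Polynomial.X ^ 2 : Polynomial K)) (g := Polynomial.X ^ 2 - Polynomial.C c)
      (Polynomial.degree_X_pow 2) (Polynomial.degree_X_pow_sub_C (by norm_num) c)
      (FiniteField.odd_card_of_char_ne_two h2)
    exact ⟨x, y, by simp at hxy; linear_combination -hxy⟩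

theorem good_of_sq [Finite K] {u : Kˣ} (h1 : u ≠ 1) (h : ∀ x : Kˣ, x ^ 2 ∈ Subgroup.zpowers u) :
    Good (u : K) := by
  refine ⟨fun e => h1 (Units.ext e), fun A hA ⟨c, hc, c0⟩ => ?_⟩
  have hp : ∀ m : ℕ, ∀ x ∈ A, (u : K) ^ m * x ∈ A := fun m => by
    induction m with
    | zero => simp
    | succ m ih => intro x hx; rw [pow_succ', mul_assoc]; exact hA _ (ih x hx)
  have hs : ∀ y : K, y ^ 2 * c ∈ A := fun y => by
    by_cases hy : y = 0
    · simp [hy]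
    · obtain ⟨m, hm⟩ := (mem_powers_iff_mem_zpowers).2 (h (Units.mk0 y hy))
      have := congrArg Units.val hm
      simp only [Units.val_pow_eq_pow_val, Units.val_mk0] at this
      rw [← this]; exact hp m c hc
  rw [eq_top_iff]
  intro t _
  obtain ⟨x, y, e⟩ := exists_sq_add_sq' (t / c)
  have : t = x ^ 2 * c + y ^ 2 * c := by rw [← add_mul, ← e, div_mul_cancel₀ _ c0]
  rw [this]; exact add_mem (hs x) (hs y)

theorem good_zpow [Finite K] {a : Kˣ} (ha : ∀ x, x ∈ Subgroup.zpowers a) {e : ℤ}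
    (he : e ∣ 2) (h1 : a ^ e ≠ 1) : Good ((a ^ e : Kˣ) : K) := by
  refine good_of_sq h1 fun x => ?_
  obtain ⟨m, rfl⟩ := ha x
  obtain ⟨d, hd⟩ := he
  refine ⟨d * m, ?_⟩
  simp only
  rw [← zpow_mul, ← zpow_natCast, ← zpow_mul]
  congr 1
  push_cast; rw [hd]; ring

theorem zpow_ne_one_of_card [Fintype K] {a : Kˣ} (ha : ∀ x, x ∈ Subgroup.zpowers a) {e : ℤ}
    (h0 : e ≠ 0) (h : e.natAbs + 1 < Fintype.card K) : a ^ e ≠ 1 := by
  classical
  intro h1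
  have h2 := orderOf_dvd_iff_zpow_eq_one.2 h1
  rw [orderOf_eq_card_of_forall_mem_zpowers ha, Nat.card_units, Nat.card_eq_fintype_card,
    Int.natCast_dvd] at h2
  have := Nat.le_of_dvd (Int.natAbs_pos.2 h0) h2
  omega

theorem torus_trick {G : Type*} [Group G] {Y M : Subgroup G} {π : G → K}
    (hπ : ∀ x ∈ Y, ∀ y ∈ Y, π (x * y) = π x + π y) {h h₁ x : G} {a b : K} (hc : Commute h h₁)
    (ha : ∀ y ∈ Y, h * y * h⁻¹ ∈ Y ∧ π (h * y * h⁻¹) = a * π y)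
    (hb : ∀ y ∈ Y, h₁ * y * h₁⁻¹ ∈ Y ∧ π (h₁ * y * h₁⁻¹) = b * π y) (hx : x ∈ Y) (hx0 : π x ≠ 0)
    (hM : h ∈ M) (hM₁ : x * h₁ * x⁻¹ ∈ M) (ga : Good a) (hb1 : b ≠ 1) (t : K) :
    ∃ m ∈ M, m ∈ Y ∧ π m = t := by
  have h1 : π 1 = 0 := by simpa using hπ 1 Y.one_mem 1 Y.one_mem
  have hinv : ∀ y ∈ Y, π y⁻¹ = -π y := fun y hy => by
    have := hπ y hy _ (inv_mem hy)
    rw [mul_inv_cancel, h1] at this
    linear_combination -this
  let A : AddSubgroup K :=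
    { carrier := {t | ∃ m ∈ M, m ∈ Y ∧ π m = t}
      add_mem' := by
        rintro _ _ ⟨m, h1, h2, rfl⟩ ⟨m', h3, h4, rfl⟩
        exact ⟨m * m', mul_mem h1 h3, mul_mem h2 h4, hπ _ h2 _ h4⟩
      zero_mem' := ⟨1, one_mem _, one_mem _, h1⟩
      neg_mem' := by
        rintro _ ⟨m, h1, h2, rfl⟩
        exact ⟨m⁻¹, inv_mem h1, inv_mem h2, hinv m h2⟩ }
  have hA : A = ⊤ := by
    refine ga.2 A ?_ ?_
    · rintro _ ⟨m, h1, h2, rfl⟩
      exact ⟨_, mul_mem (mul_mem hM h1) (inv_mem hM), (ha m h2).1, (ha m h2).2⟩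
    · have e : h * (x * h₁ * x⁻¹) * h⁻¹ * (x * h₁ * x⁻¹)⁻¹ =
          h * x * h⁻¹ * (h₁ * (h * x⁻¹ * h⁻¹ * x) * h₁⁻¹) * x⁻¹ := by
        calc _ = h * x * h⁻¹ * (h * h₁) * x⁻¹ * h⁻¹ * x * h₁⁻¹ * x⁻¹ := by group
          _ = _ := by rw [hc.eq]; group
      have m1 := (ha x hx).1
      have m2 := mul_mem (ha _ (inv_mem hx)).1 hx
      have m3 := (hb _ m2).1
      refine ⟨_, ⟨_, mul_mem (mul_mem (mul_mem hM hM₁) (inv_mem hM)) (inv_mem hM₁), ?_, rfl⟩, ?_⟩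
      · rw [e]; exact mul_mem (mul_mem m1 m3) (inv_mem hx)
      · rw [e, hπ _ (mul_mem m1 m3) _ (inv_mem hx), hπ _ m1 _ m3, (ha x hx).2, (hb _ m2).2,
          hπ _ (ha _ (inv_mem hx)).1 _ hx, (ha _ (inv_mem hx)).2, hinv x hx]
        have : a * π x + b * (a * -π x + π x) + -π x = (a - 1) * (1 - b) * π x := by ring
        rw [this]
        exact mul_ne_zero (mul_ne_zero (sub_ne_zero.2 ga.1) (sub_ne_zero.2 hb1.symm)) hx0
  exact (hA ▸ AddSubgroup.mem_top t : t ∈ A)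

end good

variable {D : ChevalleyDatum} {C : Cert D} {K : Type*} [Field K]

theorem exists_conj_tg {n : D.group K} (hn : n ∈ (C.split K).N) (c : Fin D.rank → Kˣ) :
    ∃ d, n * C.tg K c * n⁻¹ = C.tg K d ∧
      ∀ r : Fin D.nroots, torChar D d ((C.split K).ν n r) = torChar D c r := by
  obtain ⟨d, hd⟩ := Cert.mem_H_iff.1 (Split.conj_mem_H hn (Cert.tg_mem_H c))
  refine ⟨d, hd.symm, fun r => ?_⟩
  obtain ⟨a, -, ha⟩ := Cert.conj_xg hn
  have h1 := Cert.tg_conj (C := C) d ((C.split K).ν n r).2 (a r * 1)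
  rw [← ha, hd, show n * C.tg K c * n⁻¹ * (n * C.xg K r 1 * n⁻¹) * (n * C.tg K c * n⁻¹)⁻¹ =
    n * (C.tg K c * C.xg K r 1 * (C.tg K c)⁻¹) * n⁻¹ by group, Cert.tg_conj c r.2, ha] at h1
  exact Units.ext (mul_left_cancel₀ (a r).ne_zero (by
    linear_combination - Cert.xg_injective (Fin.is_lt _) h1))

variable (τ : (C.split K).Twist)

/-- The fixed points in the group generated by a list of root subgroups. -/
noncomputable def YL (L : List ℕ) : Subgroup (D.group K) := (C.split K).U {r | (r : ℕ) ∈ L} ⊓ τ.fix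

/-- A relative root subgroup with a leading coordinate. -/
def RP (L : List ℕ) (r : Fin D.nroots) : Prop := ∃ π : D.group K → K,
  (∀ x ∈ YL τ L, ∀ y ∈ YL τ L, π (x * y) = π x + π y) ∧
  (∀ c, C.tg K c ∈ τ.fix → ∀ y ∈ YL τ L, π (C.tg K c * y * (C.tg K c)⁻¹) = torChar D c r * π y) ∧
  (∀ M : Subgroup (D.group K), (∀ t, ∃ m ∈ M, m ∈ YL τ L ∧ π m = t) → YL τ L ≤ M) ∧
  ∃ x ∈ YL τ L, π x ≠ 0

variable {τ}

theorem conj_YL {n : D.group K} (hn : n ∈ (C.split K).N) (hf : n ∈ τ.fix) {L L' : List ℕ}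
    (h : ∀ r : Fin D.nroots, (r : ℕ) ∈ L → ((C.split K).ν n r : ℕ) ∈ L') {g : D.group K}
    (hg : g ∈ YL τ L) : n * g * n⁻¹ ∈ YL τ L' :=
  ⟨Split.conj_U hn h hg.1, τ.fix.mul_mem (τ.fix.mul_mem hf hg.2) (τ.fix.inv_mem hf)⟩

theorem tg_conj_YL {c : Fin D.rank → Kˣ} (hf : C.tg K c ∈ τ.fix) {L : List ℕ} {g : D.group K}
    (hg : g ∈ YL τ L) : C.tg K c * g * (C.tg K c)⁻¹ ∈ YL τ L :=
  conj_YL (Split.H_le_N (Cert.tg_mem_H c)) hf
    (fun r hr => by rwa [Split.ν_H (Cert.tg_mem_H c)]) hg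

theorem YL_le_G1 {L : List ℕ} (h : (∀ r ∈ L, D.IsPosRoot r) ∨ ∀ r ∈ L, D.IsNegRoot r) :
    YL τ L ≤ τ.G1 := by
  rcases h with h | h
  · exact le_trans (inf_le_inf_right _ (Split.U_mono fun r hr => (C.pos_iff r).2 (h r hr)))
      τ.Up_le_G1
  · exact le_trans (inf_le_inf_right _ (Split.U_mono (A' := {r | ¬ C.S.pos r})
      fun r hr => (C.not_pos_iff r).2 (h r hr))) τ.Vn_le_G1

theorem RP.conj {L L' : List ℕ} {r : Fin D.nroots} (h : RP τ L r) {n : D.group K}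
    (hn : n ∈ (C.split K).N) (hf : n ∈ τ.fix)
    (hL : ∀ k : Fin D.nroots, (k : ℕ) ∈ L ↔ ((C.split K).ν n k : ℕ) ∈ L') :
    RP τ L' ((C.split K).ν n r) := by
  obtain ⟨π, h1, h2, h3, x, hx, hx0⟩ := h
  have back : ∀ y ∈ YL τ L', n⁻¹ * y * n⁻¹⁻¹ ∈ YL τ L := fun y hy =>
    conj_YL (inv_mem hn) (inv_mem hf) (fun k hk => by
      rw [hL, Split.ν_inv hn, perm_app_inv]; exact hk) hy
  refine ⟨fun g => π (n⁻¹ * g * n⁻¹⁻¹), fun a ha b hb => ?_, fun c hc y hy => ?_, fun M hM y hy => ?_,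
    n * x * n⁻¹, conj_YL hn hf (fun k => (hL k).1) hx, by simpa [mul_assoc] using hx0⟩
  · rw [← h1 _ (back a ha) _ (back b hb)]; group
  · obtain ⟨d, hd, hd'⟩ := exists_conj_tg (inv_mem hn) c
    have := h2 d (hd ▸ mul_mem (mul_mem (inv_mem hf) hc) (inv_mem (inv_mem hf))) _ (back y hy)
    rw [← hd' ((C.split K).ν n r), Split.ν_inv hn, perm_inv_app, ← this, ← hd]
    group
  · have := h3 (M.comap (MulAut.conj n).toMonoidHom) (fun t => by
      obtain ⟨m, m1, m2, rfl⟩ := hM t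
      exact ⟨_, by simpa [Subgroup.mem_comap, mul_assoc] using m1, back m m2, rfl⟩) (back y hy)
    simpa [Subgroup.mem_comap, mul_assoc] using this

theorem RP.stage {L : List ℕ} {r : Fin D.nroots} (h : RP τ L r) : ∃ x ∈ YL τ L,
    ∀ (M : Subgroup (D.group K)) (c d : Fin D.rank → Kˣ) (z : D.group K), C.tg K c ∈ τ.fix →
      C.tg K d ∈ τ.fix → Commute (C.tg K c) z → (∀ y ∈ YL τ L, Commute z y) → C.tg K c ∈ M →
      x * (z * C.tg K d * z⁻¹) * x⁻¹ ∈ M → Good (torChar D c r : K) → torChar D d r ≠ 1 →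
      YL τ L ≤ M := by
  obtain ⟨π, h1, h2, h3, x, hx, hx0⟩ := h
  refine ⟨x, hx, fun M c d z hc hd hcz hz hM hM' g1 g2 => h3 M ?_⟩
  have hcd : Commute (C.tg K c) (C.tg K d) := Cert.H_comm _ (Cert.tg_mem_H c) _ (Cert.tg_mem_H d)
  refine torus_trick h1 (b := torChar D d r) ((hcz.mul_right hcd).mul_right hcz.inv_right)
    (fun y hy => ⟨tg_conj_YL hc hy, h2 c hc y hy⟩) (fun y hy => ?_) hx hx0 hM hM' g1
    fun e => g2 (Units.ext e)
  have e : z * C.tg K d * z⁻¹ * y * (z * C.tg K d * z⁻¹)⁻¹ = C.tg K d * y * (C.tg K d)⁻¹ := by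
    calc _ = z * (C.tg K d * (z⁻¹ * y * z) * (C.tg K d)⁻¹) * z⁻¹ := by group
      _ = _ := by
        rw [(hz y hy).inv_left.eq, inv_mul_cancel_right, (hz _ (tg_conj_YL hd hy)).eq,
          mul_inv_cancel_right]
  rw [e]
  exact ⟨tg_conj_YL hd hy, h2 d hd y hy⟩

/-- The first stage: `a = h`, `b = x z n`. -/
theorem RP.stage_one {L : List ℕ} {r : Fin D.nroots} (h : RP τ L r) : ∃ x ∈ YL τ L,
    ∀ (M : Subgroup (D.group K)) (c : Fin D.rank → Kˣ) (z n : D.group K), C.tg K c ∈ τ.fix →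
      n ∈ (C.split K).N → n ∈ τ.fix → Commute (C.tg K c) z → (∀ y ∈ YL τ L, Commute z y) →
      C.tg K c ∈ M → x * z * n ∈ M → Good (torChar D c r : K) →
      torChar D c (((C.split K).ν n)⁻¹ r) ≠ 1 → YL τ L ≤ M ∧ z * n ∈ M := by
  obtain ⟨x, hx, H⟩ := h.stage
  refine ⟨x, hx, fun M c z n hc hn hf hcz hz hM hb g1 g2 => ?_⟩
  obtain ⟨d, hd, hd'⟩ := exists_conj_tg hn c
  have := H M c d z hc (hd ▸ mul_mem (mul_mem hf hc) (inv_mem hf)) hcz hz hM (by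
    have := mul_mem (mul_mem hb hM) (inv_mem hb)
    rw [← hd]; convert this using 1; group) g1 (by rwa [← hd', perm_app_inv] at g2)
  exact ⟨this, by simpa [mul_assoc] using mul_mem (inv_mem (this hx)) hb⟩

/-- The second stage: `h` centralises `x`, and `x n ∈ M`. -/
theorem RP.stage_two {L : List ℕ} {r : Fin D.nroots} (h : RP τ L r) : ∃ x ∈ YL τ L,
    ∀ (M : Subgroup (D.group K)) (c : Fin D.rank → Kˣ) (n : D.group K), C.tg K c ∈ τ.fix →
      n ∈ (C.split K).N → n ∈ τ.fix → Commute (C.tg K c) x → C.tg K c ∈ M → x * n ∈ M →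
      Good (torChar D c ((C.split K).ν n r) : K) → torChar D c (((C.split K).ν n)⁻¹ r) ≠ 1 →
      YL τ L ≤ M ∧ n ∈ M := by
  obtain ⟨x, hx, H⟩ := h.stage
  refine ⟨x, hx, fun M c n hc hn hf hcx hM hb g1 g2 => ?_⟩
  obtain ⟨d, hd, hd'⟩ := exists_conj_tg hn c
  obtain ⟨e, he, he'⟩ := exists_conj_tg (inv_mem hn) c
  have := H M e d 1 (he ▸ mul_mem (mul_mem (inv_mem hf) hc) (inv_mem (inv_mem hf)))
    (hd ▸ mul_mem (mul_mem hf hc) (inv_mem hf)) (Commute.one_right _) (fun _ _ => Commute.one_left _)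
    (by
      have := mul_mem (mul_mem (inv_mem hb) hM) hb
      rw [← he]; convert this using 1
      rw [mul_inv_rev, mul_assoc n⁻¹ x⁻¹, ← hcx.inv_right.eq]; group)
    (by
      have := mul_mem (mul_mem hb hM) (inv_mem hb)
      rw [← hd]; convert this using 1; group)
    (by rwa [← he', Split.ν_inv hn, perm_inv_app] at g1)
    (by rwa [← hd', perm_app_inv] at g2)
  exact ⟨this, by simpa [mul_assoc] using mul_mem (inv_mem (this hx)) hb⟩

theorem commute_tg_YL {c : Fin D.rank → Kˣ} {L : List ℕ} (h : ∀ r ∈ L, torChar D c r = 1)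
    {y : D.group K} (hy : y ∈ YL τ L) : Commute (C.tg K c) y := by
  refine Subgroup.mem_centralizer_singleton_iff.1 ((Split.U_le (K := Subgroup.centralizer {_})
    fun r hr x hx => ?_) hy.1) |>.symm
  obtain ⟨t, rfl⟩ := Cert.mem_X.1 hx
  have := Cert.tg_conj (C := C) c r.2 t
  rw [h r hr, Units.val_one, one_mul, mul_inv_eq_iff_eq_mul] at this
  exact Subgroup.mem_centralizer_singleton_iff.2 this.symm

theorem commute_YL {L L' : List ℕ} (h : ∀ r ∈ L, ∀ s ∈ L', s ≠ r ∧ s ≠ D.neg r ∧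
      ∀ c ∈ D.commTerms r s, (c.2.1 : K) = 0)
    {y z : D.group K} (hy : y ∈ YL τ L) (hz : z ∈ YL τ L') : Commute z y := by
  refine Subgroup.mem_centralizer_singleton_iff.1 ((Split.U_le (K := Subgroup.centralizer {_})
    fun s hs x hx => ?_) hz.1)
  refine Subgroup.mem_centralizer_singleton_iff.2 (Subgroup.mem_centralizer_singleton_iff.1
    ((Split.U_le (K := Subgroup.centralizer {_}) fun r hr x' hx' => ?_) hy.1)).symm
  obtain ⟨u, rfl⟩ := Cert.mem_X.1 hx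
  obtain ⟨t, rfl⟩ := Cert.mem_X.1 hx'
  obtain ⟨h1, h2, h3⟩ := h r hr s hs
  rw [Subgroup.mem_centralizer_singleton_iff, Cert.xg_comm r.2 s.2 h1 h2, List.prod_eq_one, mul_one]
  intro g hg
  simp only [ChevalleyDatum.commWord, List.map_map, List.mem_map, Function.comp] at hg
  obtain ⟨c, hc, rfl⟩ := hg
  rw [h3 c hc, zero_mul, zero_mul, Cert.xg_zero]

end Cfsg.Agent.H40
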