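import Cfsg.Agent.H40.TwoGenA
import Cfsg.Agent.H40.RecogF2

/-!
# Steinberg's two generators: certificates on roots (untwisted groups)
-/

set_option autoImplicit false

namespace Cfsg.Agent.H40

open Cfsg.Lie H34 H37 Equiv

variable {D : ChevalleyDatum} {C : Cert D} {K : Type*} [Field K]

variable (C) in
/-- `w` is the product of the simple reflections listed in `l`. -/
def IsWord (l : List ℕ) (w : Perm (Fin D.nroots)) : Prop :=
  ∃ g : List (Fin D.rank), g.map Fin.val = l ∧ C.S.word g = w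

theorem IsWord.apply {l : List ℕ} {w : Perm (Fin D.nroots)} (h : IsWord C l w) (r : Fin D.nroots) :
    (w r : ℕ) = l.foldr D.reflectRoot r := by
  obtain ⟨g, rfl, rfl⟩ := h
  exact Cert.word_val g r

theorem IsWord.append {l l' : List ℕ} {w w' : Perm (Fin D.nroots)} (h : IsWord C l w)
    (h' : IsWord C l' w') : IsWord C (l ++ l') (w * w') := by
  obtain ⟨g, rfl, rfl⟩ := h
  obtain ⟨g', rfl, rfl⟩ := h'
  exact ⟨g ++ g', List.map_append, C.S.word_append _ _⟩

theorem IsWord.reverse {l : List ℕ} {w : Perm (Fin D.nroots)} (h : IsWord C l w) :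
    IsWord C l.reverse w⁻¹ := by
  obtain ⟨g, rfl, rfl⟩ := h
  exact ⟨g.reverse, List.map_reverse, C.S.word_reverse _⟩

theorem isWord_nil : IsWord C [] 1 := ⟨[], rfl, rfl⟩

theorem exists_isWord {l : List ℕ} (h : ∀ i ∈ l, i < D.rank) : ∃ w ∈ C.S.W, IsWord C l w :=
  ⟨_, C.S.word_mem_W _, l.pmap Fin.mk h, by rw [List.map_pmap]; simp, rfl⟩

/-- The root subgroup `X_k` lies in `M`. -/
def Kn (C : Cert D) (M : Subgroup (D.group K)) (k : ℕ) : Prop := ∀ t, C.xg K k t ∈ M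

theorem Kn.conj {M : Subgroup (D.group K)} {n : D.group K} (hn : n ∈ (C.split K).N) (hM : n ∈ M)
    {k : Fin D.nroots} (h : Kn C M k) : Kn C M ((C.split K).ν n k) := fun t =>
  X_le_of_conj hn hM (fun x hx => by obtain ⟨t, rfl⟩ := Cert.mem_X.1 hx; exact h t)
    (Cert.xg_mem_X _ t)

theorem kn_comap {M : Subgroup (D.group K)} {n : D.group K} (hn : n ∈ (C.split K).N)
    (k : Fin D.nroots) :
    Kn C (M.comap (MulAut.conj n).toMonoidHom) k ↔ Kn C M ((C.split K).ν n k) := by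
  obtain ⟨a, -, ha⟩ := Cert.conj_xg hn
  refine ⟨fun h t => ?_, fun h t => ?_⟩
  · have : n * C.xg K k ((a k)⁻¹ * t) * n⁻¹ ∈ M := h _
    rwa [ha, Units.mul_inv_cancel_left] at this
  · change n * C.xg K k t * n⁻¹ ∈ M
    rw [ha]; exact h _

/-- Extraction of the letter at position `p`. -/
def exOK (un : ℤ → Bool) (kn : ℕ → Bool) (L : List (ℕ × ℤ × ℕ × ℕ)) (p : ℕ) : Option ℕ :=
  match L.drop p with
  | c :: L₂ => if un c.2.1 && c.2.2.2 == 1 && (L.take p ++ L₂).all fun d => kn d.1 then some c.1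
    else none
  | [] => none

theorem exOK_sound {M : Subgroup (D.group K)} {un : ℤ → Bool} (hun : ∀ c, un c = true → (c : K) ≠ 0)
    {kn : ℕ → Bool} {L : List (ℕ × ℤ × ℕ × ℕ)} (hkn : ∀ d ∈ L, kn d.1 = true → Kn C M d.1)
    {a : K} (ha : a ≠ 0)
    (H : ∀ u : K, C.wg K (L.map fun c => (c.1, (c.2.1 : K) * a ^ c.2.2.1 * u ^ c.2.2.2)) ∈ M)
    {p k : ℕ} (h : exOK un kn L p = some k) : (∃ c ∈ L, c.1 = k) ∧ Kn C M k := by
  unfold exOK at h
  split at h
  · rename_i c L₂ e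
    split_ifs at h with h1
    obtain rfl := Option.some.inj h
    simp only [Bool.and_eq_true, beq_iff_eq, List.all_eq_true, List.mem_append] at h1
    have eL : L = L.take p ++ c :: L₂ := by rw [← e, List.take_append_drop]
    have hw : ∀ (L' : List (ℕ × ℤ × ℕ × ℕ)) (u : K), (∀ d ∈ L', d ∈ L ∧ kn d.1 = true) →
        C.wg K (L'.map fun c => (c.1, (c.2.1 : K) * a ^ c.2.2.1 * u ^ c.2.2.2)) ∈ M :=
      fun L' u h => Cert.wg_mem fun q hq => by
        obtain ⟨d, hd, rfl⟩ := List.mem_map.1 hq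
        exact hkn d (h d hd).1 (h d hd).2 _
    refine ⟨⟨c, by rw [eL]; simp, rfl⟩, fun t => ?_⟩
    have h0 : (c.2.1 : K) * a ^ c.2.2.1 ≠ 0 := mul_ne_zero (hun _ h1.1.1) (pow_ne_zero _ ha)
    have := H (((c.2.1 : K) * a ^ c.2.2.1)⁻¹ * t)
    rw [eL, List.map_append, Cert.wg_append, List.map_cons, Cert.wg_cons,
      M.mul_mem_cancel_left (hw _ _ fun d hd => ⟨List.mem_of_mem_take hd, h1.2 d (Or.inl hd)⟩),
      M.mul_mem_cancel_right (hw _ _ fun d hd => ⟨by rw [eL]; simp [hd], h1.2 d (Or.inr hd)⟩)]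
      at this
    simpa only [h1.1.2, pow_one, mul_inv_cancel_left₀ h0] using this
  · cases h

/-- Derivation steps. -/
inductive Stp
  | fwd (k p : ℕ)
  | bwd (k p : ℕ)
  | img (k : ℕ)
  | imgi (k : ℕ)
  | com (a b p : ℕ)
  | ref (a b c : ℕ)

/-- One derivation step; `x_s(u) n_l ∈ M` and `S` lists roots whose root subgroups lie in `M`. -/
def stp (D : ChevalleyDatum) (l : List ℕ) (s : ℕ) (un : ℤ → Bool) (S : List ℕ) : Stp → Option ℕ
  | .fwd k p =>
    if k ∈ S ∧ l.foldr D.reflectRoot k ≠ s ∧ l.foldr D.reflectRoot k ≠ D.neg s then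
      exOK un (fun x => decide (x ∈ S))
        ((l.foldr D.reflectRoot k, 1, 0, 1) :: D.commTerms s (l.foldr D.reflectRoot k)) p
    else none
  | .bwd k p =>
    if k ∈ S ∧ k ≠ s ∧ k ≠ D.neg s then
      (exOK un (fun x => decide (l.reverse.foldr D.reflectRoot x ∈ S))
        ((k, 1, 0, 1) :: D.commTerms s k) p).map (l.reverse.foldr D.reflectRoot)
    else none
  | .img k => if s ∈ S ∧ k ∈ S then some (l.foldr D.reflectRoot k) else none
  | .imgi k => if s ∈ S ∧ k ∈ S then some (l.reverse.foldr D.reflectRoot k) else none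
  | .com a b p =>
    if a ∈ S ∧ b ∈ S ∧ b ≠ a ∧ b ≠ D.neg a then exOK un (fun x => decide (x ∈ S)) (D.commTerms a b) p
    else none
  | .ref a b c =>
    if a ∈ S ∧ D.neg a ∈ S ∧ b ∈ S ∧ c < D.nroots ∧
      ∀ j < D.rank, D.cartan j c = 1 * D.cartan j b + (-D.pairing a b) * D.cartan j a then some c
    else none

/-- Running a derivation. -/
def runS (D : ChevalleyDatum) (l : List ℕ) (s : ℕ) (un : ℤ → Bool) : List ℕ → List Stp → List ℕ
  | S, [] => S
  | S, x :: xs => runS D l s un ((stp D l s un S x).toList ++ S) xs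

section sound

variable {M : Subgroup (D.group K)} {n : D.group K} (hn : n ∈ (C.split K).N) {l : List ℕ}
  (hl : IsWord C l ((C.split K).ν n)) {s : ℕ} (hs : s < D.nroots) {u : K} (hu : u ≠ 0)
  (hb : C.xg K s u * n ∈ M) {un : ℤ → Bool} (hun : ∀ c, un c = true → (c : K) ≠ 0)

include hn hl hs hu hb hun

theorem stp_sound {S : List ℕ} (hS : ∀ k ∈ S, k < D.nroots ∧ Kn C M k) {x : Stp} {k' : ℕ}
    (h : stp D l s un S x = some k') : k' < D.nroots ∧ Kn C M k' := by
  have hcons : ∀ {k : ℕ}, k < D.nroots → ∀ c ∈ (k, 1, 0, 1) :: D.commTerms s k, c.1 < D.nroots := by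
    intro k hk c hc
    rcases List.mem_cons.1 hc with rfl | hc
    exacts [hk, (C.commTerms_spec hs hk c hc).1]
  have hw : ∀ {k : ℕ} (a v : K), C.wg K (((k, 1, 0, 1) :: D.commTerms s k).map
      fun c => (c.1, (c.2.1 : K) * (- -a) ^ c.2.2.1 * v ^ c.2.2.2)) =
      C.xg K k v * C.wg K (D.commWord K s k (-a) v) := by
    intro k a v; simp [ChevalleyDatum.commWord]
  cases x with
  | fwd k p =>
    simp only [stp] at h
    split_ifs at h with h1
    obtain ⟨hk, hK⟩ := hS k h1.1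
    rw [← hl.apply ⟨k, hk⟩] at h h1
    obtain ⟨a, -, ha⟩ := Cert.conj_xg hn
    obtain ⟨⟨c, hc, rfl⟩, h2⟩ := exOK_sound (C := C) (M := M) hun
      (fun d _ hd => (hS _ (of_decide_eq_true hd)).2) (a := - -u) (by simpa) (fun v => by
        rw [hw, ← conj_xg_xg C hs (Fin.is_lt _) h1.2.1 h1.2.2,
          ← Units.mul_inv_cancel_left (a ⟨k, hk⟩) v, ← ha]
        have := mul_mem (mul_mem hb (hK ((a ⟨k, hk⟩)⁻¹ * v))) (inv_mem hb)
        convert this using 1; group) h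
    exact ⟨hcons (Fin.is_lt _) c hc, h2⟩
  | bwd k p =>
    simp only [stp] at h
    split_ifs at h with h1
    obtain ⟨hk, hK⟩ := hS k h1.1
    obtain ⟨k₀, h0, rfl⟩ := Option.map_eq_some_iff.1 h
    have hl' := hl.reverse
    rw [← Split.ν_inv hn] at hl'
    obtain ⟨⟨c, hc, rfl⟩, h2⟩ := exOK_sound (C := C) (M := M.comap (MulAut.conj n⁻¹).toMonoidHom) hun
      (fun d hd h => (kn_comap (inv_mem hn) ⟨d.1, hcons hk d hd⟩).2 (by
        rw [hl'.apply]; exact (hS _ (of_decide_eq_true h)).2)) (a := - - -u) (by simpa) (fun v => by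
        rw [hw, ← conj_xg_xg C hs hk h1.2.1 h1.2.2, Cert.xg_neg]
        have := mul_mem (mul_mem (inv_mem hb) (hK v)) hb
        change n⁻¹ * _ * n⁻¹⁻¹ ∈ M
        convert this using 1; group) h0
    rw [← hl'.apply ⟨c.1, hcons hk c hc⟩]
    exact ⟨Fin.is_lt _, (kn_comap (inv_mem hn) ⟨c.1, hcons hk c hc⟩).1 h2⟩
  | img k =>
    simp only [stp] at h
    split_ifs at h with h1
    obtain rfl := Option.some.inj h
    rw [← hl.apply ⟨k, (hS k h1.2).1⟩]
    exact ⟨Fin.is_lt _, Kn.conj hn ((M.mul_mem_cancel_left ((hS s h1.1).2 u)).1 hb) (hS k h1.2).2⟩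
  | imgi k =>
    simp only [stp] at h
    split_ifs at h with h1
    obtain rfl := Option.some.inj h
    rw [← hl.reverse.apply ⟨k, (hS k h1.2).1⟩, ← Split.ν_inv hn]
    exact ⟨Fin.is_lt _, Kn.conj (inv_mem hn)
      (inv_mem ((M.mul_mem_cancel_left ((hS s h1.1).2 u)).1 hb)) (hS k h1.2).2⟩
  | com a b p =>
    simp only [stp] at h
    split_ifs at h with h1
    obtain ⟨ha, hA⟩ := hS a h1.1
    obtain ⟨hb', hB⟩ := hS b h1.2.1
    obtain ⟨⟨c, hc, rfl⟩, h2⟩ := exOK_sound (C := C) (M := M) hun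
      (fun d _ hd => (hS _ (of_decide_eq_true hd)).2) (a := - -1) (by simp) (fun v => by
        have := mul_mem (mul_mem (hA 1) (hB v)) (inv_mem (hA 1))
        rw [conj_xg_xg C ha hb' h1.2.2.1 h1.2.2.2, M.mul_mem_cancel_left (hB v)] at this
        exact this) h
    exact ⟨(C.commTerms_spec ha hb' c hc).1, h2⟩
  | ref a b c =>
    simp only [stp] at h
    split_ifs at h with h1
    obtain rfl := Option.some.inj h
    obtain ⟨ha, hA⟩ := hS a h1.1
    obtain ⟨hb', hB⟩ := hS b h1.2.2.1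
    have e : C.R.τ ⟨a, ha⟩ ⟨b, hb'⟩ = ⟨c, h1.2.2.2.1⟩ := C.R.rc_inj (by
      rw [C.R.rc_τ, pair_eq, C.rc_of_cartan (k := ⟨c, h1.2.2.2.1⟩) (r := ⟨b, hb'⟩) (s := ⟨a, ha⟩)
        h1.2.2.2.2, one_smul, neg_smul, sub_eq_add_neg])
    have := Kn.conj (C := C) (Cert.ng_mem_N ha one_ne_zero) (show C.ng K a 1 ∈ M from
      mul_mem (mul_mem (hA _) ((hS _ h1.2.1).2 _)) (hA _)) (k := ⟨b, hb'⟩) hB
    rw [ν_ng_τ ⟨a, ha⟩ one_ne_zero, e] at this
    exact ⟨h1.2.2.2.1, this⟩

theorem runS_sound (xs : List Stp) : ∀ {S : List ℕ}, (∀ k ∈ S, k < D.nroots ∧ Kn C M k) →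
    ∀ k ∈ runS D l s un S xs, k < D.nroots ∧ Kn C M k := by
  induction xs with
  | nil => exact id
  | cons x xs ih =>
    intro S hS
    refine ih fun k hk => ?_
    rcases List.mem_append.1 hk with hk | hk
    · exact stp_sound hn hl hs hu hb hun hS (Option.mem_toList.1 hk)
    · exact hS k hk

end sound

theorem eq_top_of_kn {M : Subgroup (D.group K)}
    (h : ∀ i < D.rank, Kn C M (D.simple i) ∧ Kn C M (D.neg (D.simple i))) : M = ⊤ := by
  have hW : ∀ l : List (Fin D.rank), ∃ n ∈ M, n ∈ (C.split K).N ∧ (C.split K).ν n = C.S.word l := by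
    intro l
    induction l with
    | nil => exact ⟨1, one_mem _, one_mem _, Split.ν_one⟩
    | cons i l ih =>
      obtain ⟨n, h1, h2, h3⟩ := ih
      have hi := Cert.ng_mem_N (C := C) (F := K) (C.V.basic.simple_lt i i.2) one_ne_zero
      refine ⟨C.ng K (D.simple i) 1 * n, mul_mem (mul_mem (mul_mem ((h i i.2).1 _) ((h i i.2).2 _))
        ((h i i.2).1 _)) h1, mul_mem hi h2, ?_⟩
      rw [(C.split K).ν_mul _ hi _ h2, h3, Cert.ν_ng i one_ne_zero, SignedSys.word_cons]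
  rw [eq_top_iff]
  intro g _
  have : g ∈ (C.split K).U Set.univ := Cert.mem_U.2 (by simpa using C.V.group_eq.le g.2)
  refine (Split.U_le fun r _ x hx => ?_) this
  obtain ⟨w, hw, i, -, rfl⟩ : r ∈ C.S.Phi Set.univ := (C.split K).phi_univ ▸ Set.mem_univ r
  obtain ⟨l, rfl⟩ := C.S.mem_W_iff.1 (C.S.WJ_le_W _ hw)
  obtain ⟨n, h1, h2, h3⟩ := hW l
  obtain ⟨t, rfl⟩ := Cert.mem_X.1 hx
  rw [← h3]
  refine Kn.conj h2 h1 (k := C.S.α i) ?_ t
  rw [sgn_α, C.simple_val]; exact (h i i.2).1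

theorem mem_YL_one {r : Fin D.nroots} {g : D.group K} :
    g ∈ YL (Split.Twist.one (C.split K)) [r] ↔ ∃ t, C.xg K r t = g := by
  refine ⟨fun h => Cert.mem_X.1 ((Split.U_le fun k hk x hx => ?_) h.1), ?_⟩
  · obtain rfl : k = r := Fin.ext (List.mem_singleton.1 hk)
    exact hx
  · rintro ⟨t, rfl⟩
    exact ⟨Cert.xg_mem_U r.2 (List.mem_singleton.2 rfl) t, rfl⟩

theorem rp_one (r : Fin D.nroots) : RP (Split.Twist.one (C.split K)) [r] r := by
  have hπ : ∀ t, Function.invFun (C.xg K r) (C.xg K r t) = t :=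
    Function.leftInverse_invFun (Cert.xg_injective r.2)
  refine ⟨Function.invFun (C.xg K r), fun x hx y hy => ?_, fun c _ y hy => ?_, fun M hM y hy => ?_,
    _, mem_YL_one.2 ⟨1, rfl⟩, by rw [hπ]; exact one_ne_zero⟩
  · obtain ⟨t, rfl⟩ := mem_YL_one.1 hx
    obtain ⟨u, rfl⟩ := mem_YL_one.1 hy
    rw [← Cert.xg_add, hπ, hπ, hπ]
  · obtain ⟨t, rfl⟩ := mem_YL_one.1 hy
    rw [Cert.tg_conj c r.2, hπ, hπ]
  · obtain ⟨t, rfl⟩ := mem_YL_one.1 hy
    obtain ⟨m, h1, h2, h3⟩ := hM t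
    obtain ⟨u, rfl⟩ := mem_YL_one.1 h2
    rw [hπ] at h3
    exact h3 ▸ h1

/-- The exponent of a root on a one-parameter subgroup of the torus. -/
def lex (D : ChevalleyDatum) (lam : List ℤ) (r : ℕ) : ℤ :=
  ∑ i ∈ Finset.range D.rank, lam.getD i 0 * D.cartan i r

theorem torChar_lex (a : Kˣ) (lam : List ℤ) (r : ℕ) :
    torChar D (fun i => a ^ lam.getD i 0) r = a ^ lex D lam r := by
  simp only [torChar, ← zpow_mul, prod_zpow_sum, lex, Finset.sum_range]

/-- The derivation reaches all simple roots and their negatives. -/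
def fin (D : ChevalleyDatum) (l : List ℕ) (s : ℕ) (un : ℤ → Bool) (S : List ℕ) (xs : List Stp) :
    Bool :=
  (fun T : List ℕ => (List.range D.rank).all fun i =>
    decide (D.simple i ∈ T) && decide (D.neg (D.simple i) ∈ T)) (runS D l s un S xs)

theorem top_of_fin {M : Subgroup (D.group K)} {n : D.group K} (hn : n ∈ (C.split K).N) {l : List ℕ}
    (hl : IsWord C l ((C.split K).ν n)) {s : ℕ} (hs : s < D.nroots)
    (hb : C.xg K s 1 * n ∈ M) {un : ℤ → Bool} (hun : ∀ c, un c = true → (c : K) ≠ 0)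
    {S : List ℕ} (hS : ∀ k ∈ S, k < D.nroots ∧ Kn C M k) {xs : List Stp}
    (h : fin D l s un S xs = true) : M = ⊤ := by
  simp only [fin, List.all_eq_true, List.mem_range, Bool.and_eq_true, decide_eq_true_eq] at h
  have := runS_sound hn hl hs one_ne_zero hb hun xs hS
  exact eq_top_of_kn (C := C) fun i hi => ⟨(this _ (h i hi).1).2, (this _ (h i hi).2).2⟩

theorem kn_of_YL {M : Subgroup (D.group K)} {r : Fin D.nroots}
    (h : YL (Split.Twist.one (C.split K)) [r] ≤ M) : Kn C M r := fun t => h (mem_YL_one.2 ⟨t, rfl⟩)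

include C in
theorem two_gen_one [Fintype K] (l : List ℕ) (r s : ℕ) (lam : List ℤ) (xs : List Stp)
    {un : ℤ → Bool} (hun : ∀ c, un c = true → (c : K) ≠ 0)
    (h : (∀ i ∈ l, i < D.rank) ∧ r < D.nroots ∧ s < D.nroots ∧ fin D l s un [r] xs = true ∧
      (lex D lam r).natAbs = 1 ∧ (lex D lam (l.reverse.foldr D.reflectRoot r)).natAbs = 1 ∧
      (s = r ∨ lex D lam s = 0 ∧ s ≠ r ∧ s ≠ D.neg r ∧ D.commTerms r s = [])) :
    ∃ a b : D.group K, Subgroup.closure {a, b} = ⊤ := by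
  obtain ⟨hl, hr, hs, hf, e1, e2, h⟩ := h
  obtain ⟨w, hw, hl⟩ := exists_isWord (C := C) hl
  obtain ⟨n, hn, rfl⟩ := (C.split K).exists_lift hw
  rcases (Nat.succ_le_of_lt (Fintype.one_lt_card (α := K))).eq_or_lt with h2 | h2
  · refine ⟨C.xg K r 1, C.xg K s 1 * n, top_of_fin hn hl hs (Subgroup.subset_closure (by simp)) hun
      (fun k hk => ?_) hf⟩
    obtain rfl := List.mem_singleton.1 hk
    refine ⟨hr, fun t => ?_⟩
    rcases eq_zero_or_one_of_card h2.symm t with rfl | rfl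
    · rw [Cert.xg_zero]; exact one_mem _
    · exact Subgroup.subset_closure (by simp)
  obtain ⟨a, ha⟩ := IsCyclic.exists_generator (α := Kˣ)
  obtain ⟨x, -, H⟩ := (rp_one (C := C) (K := K) ⟨r, hr⟩).stage_one
  have hne : ∀ e : ℤ, e.natAbs = 1 → a ^ e ≠ 1 := fun e he =>
    zpow_ne_one_of_card ha (by rintro rfl; simp at he) (by omega)
  have g1 : Good (torChar D (fun i => a ^ lam.getD i 0) r : K) := by
    rw [torChar_lex]
    exact good_zpow ha (Int.natAbs_dvd.1 (by rw [e1]; simp)) (hne _ e1)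
  have g2 : torChar D (fun i => a ^ lam.getD i 0) (((C.split K).ν n)⁻¹ ⟨r, hr⟩) ≠ 1 := by
    rw [torChar_lex, hl.reverse.apply]; exact hne _ e2
  rcases h with rfl | ⟨h0, h⟩
  · have := H (Subgroup.closure {C.tg K fun i => a ^ lam.getD i 0, x * 1 * n}) _ 1 n rfl hn rfl
      (Commute.one_right _) (fun _ _ => Commute.one_left _) (Subgroup.subset_closure (by simp))
      (Subgroup.subset_closure (by simp)) g1 g2
    have h1 := kn_of_YL this.1
    exact ⟨_, _, top_of_fin hn hl hs (mul_mem (h1 1) (by simpa using this.2)) hun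
      (fun k hk => by obtain rfl := List.mem_singleton.1 hk; exact ⟨hr, h1⟩) hf⟩
  · have hz : C.xg K s 1 ∈ YL (Split.Twist.one (C.split K)) [(⟨s, hs⟩ : Fin D.nroots)] :=
      mem_YL_one.2 ⟨1, rfl⟩
    have := H (Subgroup.closure {C.tg K fun i => a ^ lam.getD i 0, x * C.xg K s 1 * n}) _ _ n rfl hn
      rfl (commute_tg_YL (List.forall_mem_singleton.2 (by rw [torChar_lex, h0, zpow_zero])) hz)
      (fun _ hy => commute_YL (by simp [h]) hy hz) (Subgroup.subset_closure (by simp))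
      (Subgroup.subset_closure (by simp)) g1 g2
    exact ⟨_, _, top_of_fin hn hl hs this.2 hun
      (fun k hk => by obtain rfl := List.mem_singleton.1 hk; exact ⟨hr, kn_of_YL this.1⟩) hf⟩

include C in
theorem two_gen_two [Fintype K] (l : List ℕ) (r s : ℕ) (lam : List ℤ) (xs : List Stp) (m : ℕ)
    (hm : m + 1 < Fintype.card K)
    (h : (∀ i ∈ l, i < D.rank) ∧ r < D.nroots ∧ s < D.nroots ∧
      fin D l s (fun _ => false) [r, s] xs = true ∧ lex D lam r ∣ 2 ∧
      lex D lam (l.foldr D.reflectRoot s) ∣ 2 ∧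
      (∀ k ∈ [r, l.reverse.foldr D.reflectRoot r, l.foldr D.reflectRoot s,
        l.reverse.foldr D.reflectRoot s], lex D lam k ≠ 0 ∧ (lex D lam k).natAbs ≤ m) ∧
      lex D lam s = 0 ∧ s ≠ r ∧ s ≠ D.neg r ∧ D.commTerms r s = []) :
    ∃ a b : D.group K, Subgroup.closure {a, b} = ⊤ := by
  obtain ⟨hl, hr, hs, hf, e1, e2, e3, h0, h⟩ := h
  obtain ⟨w, hw, hl⟩ := exists_isWord (C := C) hl
  obtain ⟨n, hn, rfl⟩ := (C.split K).exists_lift hw
  obtain ⟨a, ha⟩ := IsCyclic.exists_generator (α := Kˣ)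
  obtain ⟨x, -, H⟩ := (rp_one (C := C) (K := K) ⟨r, hr⟩).stage_one
  obtain ⟨z, hz, H'⟩ := (rp_one (C := C) (K := K) ⟨s, hs⟩).stage_two
  simp only [List.forall_mem_cons] at e3
  have hne : ∀ {e : ℤ}, e ≠ 0 ∧ e.natAbs ≤ m → a ^ e ≠ 1 := fun he =>
    zpow_ne_one_of_card ha he.1 (by omega)
  have hc : Commute (C.tg K fun i => a ^ lam.getD i 0) z :=
    commute_tg_YL (List.forall_mem_singleton.2 (by rw [torChar_lex, h0, zpow_zero])) hz
  have h1 := H (Subgroup.closure {C.tg K fun i => a ^ lam.getD i 0, x * z * n}) _ _ n rfl hn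
    rfl hc (fun _ hy => commute_YL (by simp [h]) hy hz) (Subgroup.subset_closure (by simp))
    (Subgroup.subset_closure (by simp)) (by rw [torChar_lex]; exact good_zpow ha e1 (hne e3.1))
    (by rw [torChar_lex, hl.reverse.apply]; exact hne e3.2.1)
  have h2 := H' _ _ n rfl hn rfl hc (Subgroup.subset_closure (by simp)) h1.2
    (by rw [torChar_lex, hl.apply]; exact good_zpow ha e2 (hne e3.2.2.1))
    (by rw [torChar_lex, hl.reverse.apply]; exact hne e3.2.2.2.1)
  refine ⟨_, _, top_of_fin hn hl hs (mul_mem (kn_of_YL h2.1 1) h2.2) (by simp) (fun k hk => ?_) hf⟩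
  rcases List.mem_pair.1 hk with rfl | rfl
  exacts [⟨hr, kn_of_YL h1.1⟩, ⟨hs, kn_of_YL h2.1⟩]

end Cfsg.Agent.H40
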