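import Cfsg.Agent.H40.TwoGenB
import Cfsg.Agent.H34.Twist4

/-!
# Steinberg's two generators: the twisted groups
-/

set_option autoImplicit false

namespace Cfsg.Agent.H40

open Cfsg.Lie H34 H37 Equiv

variable {D : ChevalleyDatum} {C : Cert D} {K : Type*} [Field K]

section words

variable (τ : (C.split K).Twist)

/-- The word `l` has a fixed representative in `M`. -/
def LW (M : Subgroup (D.group K)) (l : List ℕ) : Prop :=
  ∃ n ∈ (C.split K).N, n ∈ τ.fix ∧ n ∈ M ∧ IsWord C l ((C.split K).ν n)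

variable {τ} {M : Subgroup (D.group K)}

theorem LW.nil : LW τ M [] := ⟨1, one_mem _, one_mem _, one_mem _, by rw [Split.ν_one]; exact isWord_nil⟩

theorem LW.append {l l' : List ℕ} (h : LW τ M l) (h' : LW τ M l') : LW τ M (l ++ l') := by
  obtain ⟨n, h1, h2, h3, h4⟩ := h
  obtain ⟨m, g1, g2, g3, g4⟩ := h'
  exact ⟨n * m, mul_mem h1 g1, mul_mem h2 g2, mul_mem h3 g3, by
    rw [(C.split K).ν_mul _ h1 _ g1]; exact h4.append g4⟩

theorem LW.flat {gs : List (List ℕ)} (h : ∀ g ∈ gs, LW τ M g) (ws : List ℕ) :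
    LW τ M (ws.flatMap fun i => gs.getD i []) := by
  induction ws with
  | nil => exact LW.nil
  | cons i ws ih =>
    rw [List.flatMap_cons]
    refine LW.append ?_ ih
    rw [List.getD_eq_getElem?_getD]
    rcases e : gs[i]? with _ | g
    exacts [LW.nil, h g (List.mem_of_getElem? e)]

theorem LW.orb {pl : List ℕ} {gw : List (List ℕ)} (hT : IsOrbWords τ.T pl gw) (i : Fin D.rank)
    (h1 : τ.UJ i ≤ M) (h2 : τ.VJ i ≤ M) : LW τ M (gw.getD i []) := by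
  obtain ⟨n, hn, h, e⟩ := τ.exists_lift_orb i
  obtain ⟨g, e1, -, e2⟩ := hT.word i
  exact ⟨n, hn, τ.G1_le_fix ((sup_le (τ.UJ_le_G1 i) (τ.VJ_le_G1 i)) h), (sup_le h1 h2) h, g, e1,
    e2.trans e.symm⟩

theorem LW.G1 {pl : List ℕ} {gw : List (List ℕ)} (hT : IsOrbWords τ.T pl gw)
    (hl : gw.length = D.rank) (ws : List ℕ) : LW τ τ.G1 (ws.flatMap fun i => gw.getD i []) :=
  LW.flat (fun g hg => by
    obtain ⟨i, hi, rfl⟩ := List.getElem_of_mem hg
    have := LW.orb hT ⟨i, hl ▸ hi⟩ (τ.UJ_le_G1 _) (τ.VJ_le_G1 _)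
    rwa [List.getD_eq_getElem _ _ hi] at this) ws

theorem LW.YL_le {l L L' : List ℕ} (h : LW τ M l) (hL : YL τ L ≤ M)
    (chk : ∀ k ∈ L', l.reverse.foldr D.reflectRoot k ∈ L) : YL τ L' ≤ M := by
  obtain ⟨n, h1, h2, h3, h4⟩ := h
  intro y hy
  have := hL (conj_YL (inv_mem h1) (inv_mem h2) (L' := L) (fun r hr => by
    rw [Split.ν_inv h1, h4.reverse.apply]; exact chk _ hr) hy)
  simpa [mul_assoc] using mul_mem (mul_mem h3 this) (inv_mem h3)

theorem YL_le_word {gs : List (List ℕ)} (h : ∀ g ∈ gs, LW τ M g) {L : List ℕ} (hL : YL τ L ≤ M)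
    (ws L' : List ℕ)
    (chk : ∀ k ∈ L', (ws.flatMap fun i => gs.getD i []).reverse.foldr D.reflectRoot k ∈ L) :
    YL τ L' ≤ M := (LW.flat h ws).YL_le hL chk

theorem RP.word {l L L' : List ℕ} {r r' : Fin D.nroots} (h : RP τ L r) (hl : LW τ M l)
    (e : l.foldr D.reflectRoot r = r')
    (chk : ∀ k < D.nroots, k ∈ L ↔ l.foldr D.reflectRoot k ∈ L') : RP τ L' r' := by
  obtain ⟨n, h1, h2, -, h4⟩ := hl
  obtain rfl : (C.split K).ν n r = r' := Fin.ext ((h4.apply r).trans e)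
  exact h.conj h1 h2 fun k => by rw [h4.apply]; exact chk k k.2

theorem rp_of_param {P : Type*} {L : List ℕ} {r : Fin D.nroots} (W : P → List (ℕ × K)) (π : P → K)
    (hL : L.Nodup) (hp : ∀ k ∈ L, D.IsPosRoot k) (hW : ∀ p, (W p).map Prod.fst = L)
    (hπ : ∀ p, ((r : ℕ), π p) ∈ W p) (hY : ∀ y, y ∈ YL τ L ↔ ∃ p, y = C.wg K (W p))
    (hadd : ∀ p p', ∃ w, w.map Prod.fst = L ∧ C.wg K (W p) * C.wg K (W p') = C.wg K w ∧
      ((r : ℕ), π p + π p') ∈ w)
    (hfull : ∀ M : Subgroup (D.group K), (∀ t, ∃ p, C.wg K (W p) ∈ M ∧ π p = t) →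
      ∀ p, C.wg K (W p) ∈ M) (h0 : ∃ p, π p ≠ 0) : RP τ L r := by
  let Co : D.group K → K → Prop := fun y t => ∃ w, w.map Prod.fst = L ∧ y = C.wg K w ∧ ((r : ℕ), t) ∈ w
  have key : ∀ y t, Co y t → Classical.epsilon (Co y) = t := fun y t h => by
    obtain ⟨w', e1', e2', e3'⟩ := Classical.epsilon_spec ⟨t, h⟩
    obtain ⟨w, e1, rfl, e3⟩ := h
    obtain rfl := Cert.wg_inj (e1.trans e1'.symm) (e1 ▸ hL) (e1 ▸ hp) e2'
    exact congrArg Prod.snd (List.inj_on_of_nodup_map (e1 ▸ hL) e3' e3 rfl)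
  have k1 : ∀ p, Classical.epsilon (Co (C.wg K (W p))) = π p := fun p =>
    key _ _ ⟨_, hW p, rfl, hπ p⟩
  refine ⟨fun y => Classical.epsilon (Co y), fun x hx y hy => ?_, fun c _ y hy => ?_,
    fun M hM y hy => ?_, ?_⟩
  · obtain ⟨p, rfl⟩ := (hY _).1 hx
    obtain ⟨p', rfl⟩ := (hY _).1 hy
    simp only [k1]
    exact key _ _ (hadd p p')
  · obtain ⟨p, rfl⟩ := (hY _).1 hy
    simp only [k1]
    refine key _ _ ⟨_, ?_, Cert.tg_conj_wg c fun q hq => (hp _ (hW p ▸ List.mem_map_of_mem hq)).1,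
      List.mem_map.2 ⟨_, hπ p, rfl⟩⟩
    rw [List.map_map, ← hW p]; rfl
  · obtain ⟨p, rfl⟩ := (hY _).1 hy
    refine hfull M (fun t => ?_) p
    obtain ⟨m, h1, h2, h3⟩ := hM t
    obtain ⟨p, rfl⟩ := (hY _).1 h2
    exact ⟨p, h1, (k1 p).symm.trans h3⟩
  · obtain ⟨p, h⟩ := h0
    exact ⟨_, (hY _).2 ⟨p, rfl⟩, by simpa only [k1] using h⟩

/-- A one-parameter relative root subgroup. -/
theorem rp_of_add {L : List ℕ} {r : Fin D.nroots} (W : K → List (ℕ × K))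
    (hL : L.Nodup) (hp : ∀ k ∈ L, D.IsPosRoot k) (hW : ∀ p, (W p).map Prod.fst = L)
    (hπ : ∀ p, ((r : ℕ), p) ∈ W p) (hY : ∀ y, y ∈ YL τ L ↔ ∃ p, y = C.wg K (W p))
    (hadd : ∀ p p', C.wg K (W p) * C.wg K (W p') = C.wg K (W (p + p'))) : RP τ L r :=
  rp_of_param W id hL hp hW hπ hY (fun p p' => ⟨_, hW _, hadd p p', hπ _⟩)
    (fun _ h p => by obtain ⟨_, h, rfl⟩ := h p; exact h) ⟨1, one_ne_zero⟩

end words

section central

/-- The sum of the structure constants. -/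
def cc (D : ChevalleyDatum) (r s : ℕ) : ℤ := ((D.commTerms r s).map fun c => c.2.1).sum

/-- All commutators between `L` and `L'` lie in the root subgroup of `δ`, which is central. -/
def CB (D : ChevalleyDatum) (δ : ℕ) (L L' : List ℕ) : Prop :=
  (∀ r ∈ L, (∀ s ∈ L', r < D.nroots ∧ s < D.nroots ∧ s ≠ r ∧ s ≠ D.neg r ∧
    ∀ c ∈ D.commTerms r s, c.1 = δ ∧ c.2.2 = (1, 1))) ∧
  ∀ r ∈ L ++ L', r < D.nroots ∧ δ < D.nroots ∧ δ ≠ r ∧ δ ≠ D.neg r ∧ D.commTerms r δ = []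

instance decCB (D : ChevalleyDatum) (δ : ℕ) (L L' : List ℕ) : Decidable (CB D δ L L') := by
  unfold CB; infer_instance

theorem wg_same {δ : ℕ} {w : List (ℕ × K)} (h : ∀ p ∈ w, p.1 = δ) :
    C.wg K w = C.xg K δ (w.map Prod.snd).sum := by
  induction w with
  | nil => simp [Cert.xg_zero]
  | cons p w ih =>
    rw [Cert.wg_cons, ih fun q hq => h q (List.mem_cons_of_mem _ hq), h p List.mem_cons_self,
      List.map_cons, List.sum_cons, Cert.xg_add]

theorem CB.comm {δ : ℕ} {L L' : List ℕ} (h : CB D δ L L') {w w' : List (ℕ × K)}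
    (hw : ∀ p ∈ w, p.1 ∈ L) (hw' : ∀ p ∈ w', p.1 ∈ L') : C.wg K w' * C.wg K w =
      C.wg K w * C.wg K w' *
        C.xg K δ (w'.map fun q => (w.map fun p => (cc D p.1 q.1 : K) * -p.2 * q.2).sum).sum := by
  have hz : ∀ {v : List (ℕ × K)}, (∀ p ∈ v, p.1 ∈ L ++ L') → ∀ t, Commute (C.xg K δ t) (C.wg K v) :=
    fun hv t => Commute.list_prod_right _ _ fun x hx => by
      obtain ⟨p, hp, rfl⟩ := List.mem_map.1 hx
      exact (Cert.commute_xg (h.2 _ (hv p hp)) _ _).symm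
  have h1 : ∀ q : ℕ × K, q.1 ∈ L' → C.xg K q.1 q.2 * C.wg K w = C.wg K w * C.xg K q.1 q.2 *
      C.xg K δ (w.map fun p => (cc D p.1 q.1 : K) * -p.2 * q.2).sum := by
    intro q hq
    induction w with
    | nil => simp [Cert.xg_zero]
    | cons p w ih =>
      have hp := h.1 _ (hw p List.mem_cons_self) _ hq
      have hw1 : ∀ p ∈ w, p.1 ∈ L := fun x hx => hw x (List.mem_cons_of_mem _ hx)
      have e : ((D.commWord K p.1 q.1 p.2 q.2).map fun p => C.xg K p.1 p.2).prod =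
          C.xg K δ ((cc D p.1 q.1 : K) * -p.2 * q.2) := by
        refine (wg_same fun x hx => ?_).trans (congrArg _ ?_)
        · obtain ⟨c, hc, rfl⟩ := List.mem_map.1 hx
          exact (hp.2.2.2.2 c hc).1
        · rw [ChevalleyDatum.commWord, List.map_map, cc, Int.cast_list_sum, List.map_map,
            ← List.sum_map_mul_right, ← List.sum_map_mul_right]
          exact congrArg _ (List.map_congr_left fun c hc => by simp [(hp.2.2.2.2 c hc).2])
      rw [Cert.wg_cons, ← mul_assoc, Cert.xg_comm hp.1 hp.2.1 hp.2.2.1 hp.2.2.2.1, e, mul_assoc,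
        (hz (fun x hx => List.mem_append_left _ (hw1 x hx)) _).eq, ← mul_assoc,
        mul_assoc (C.xg K p.1 p.2), ih hw1, List.map_cons, List.sum_cons, add_comm, Cert.xg_add]
      group
  induction w' with
  | nil => simp [Cert.xg_zero]
  | cons q w' ih =>
    have hw1 : ∀ p ∈ w', p.1 ∈ L' := fun x hx => hw' x (List.mem_cons_of_mem _ hx)
    rw [Cert.wg_cons, mul_assoc, ih hw1, ← mul_assoc, ← mul_assoc, h1 q (hw' q List.mem_cons_self),
      mul_assoc (C.wg K w * _), (hz (fun x hx => List.mem_append_right _ (hw1 x hx)) _).eq,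
      List.map_cons, List.sum_cons, Cert.xg_add]
    group

theorem LW.exists_long {τ : (C.split K).Twist} {M : Subgroup (D.group K)} {l L : List ℕ} {δ : ℕ}
    (h : LW τ M l) (hc : CB D δ L (L.map (l.foldr D.reflectRoot)))
    (h1 : C.wg K (L.map fun r => (r, 1)) ∈ M) : ∃ u : ℕ → K, (∀ k, u k ≠ 0) ∧
      ∀ w : List (ℕ × K), (∀ p ∈ w, p.1 ∈ L) → C.wg K w ∈ M → C.xg K δ (L.map fun s =>
        (w.map fun p => (cc D p.1 (l.foldr D.reflectRoot s) : K) * -p.2 * u s).sum).sum ∈ M := by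
  obtain ⟨n, hn, -, hM, hl⟩ := h
  obtain ⟨a, -, ha⟩ := Cert.conj_xg hn
  let u : ℕ → K := fun k => if h : k < D.nroots then a ⟨k, h⟩ else 1
  refine ⟨u, fun k => by simp only [u]; split_ifs <;> simp, fun w hw hwM => ?_⟩
  have e : n * C.wg K (L.map fun r => (r, 1)) * n⁻¹ =
      C.wg K (L.map fun r => (l.foldr D.reflectRoot r, u r)) := by
    have := Cert.map_wg (C := C) (MulAut.conj n).toMonoidHom
      (fun p => (l.foldr D.reflectRoot p.1, u p.1)) (w := L.map fun r => (r, (1 : K))) fun p hp => by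
        obtain ⟨r, hr, rfl⟩ := List.mem_map.1 hp
        have hr' := (hc.2 r (List.mem_append_left _ hr)).1
        simpa [u, hr', hl.apply] using ha ⟨r, hr'⟩ 1
    rwa [List.map_map] at this
  have h2 := e ▸ mul_mem (mul_mem hM h1) (inv_mem hM)
  have h3 := mul_mem h2 hwM
  rw [hc.comm hw (fun p hp => by
      obtain ⟨r, hr, rfl⟩ := List.mem_map.1 hp
      exact List.mem_map_of_mem hr),
    M.mul_mem_cancel_left (mul_mem hwM h2), List.map_map] at h3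
  exact h3

end central

section hom

variable {ρ : ℕ → ℕ} {pl : List ℕ} (σ : TwHom C K ρ) (T : TwData D ρ pl) (hfix)

theorem UJ_eq_YL {i : Fin D.rank} {L : List ℕ} (h : OrbList D pl i L) :
    (σ.twist T hfix).UJ i = YL (σ.twist T hfix) L := by
  ext g
  rw [Split.Twist.mem_UJ, YL, show {r : Fin D.nroots | (r : ℕ) ∈ L} = _ from
    Set.ext fun r => σ.mem_orbList T h r]
  rfl

theorem VJ_le_YL {i : Fin D.rank} {L : List ℕ} (h : OrbList D pl i L) :
    (σ.twist T hfix).VJ i ≤ YL (σ.twist T hfix) (L.map D.neg) :=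
  inf_le_inf_right _ (Split.U_mono fun r hr => List.mem_map.2 ⟨C.S.neg r,
    (σ.mem_orbList T h _).2 (by
      rw [C.S.inv_wJ]; exact ⟨C.S.neg_mem_Phi hr.1, (C.S.pos_neg r).2 hr.2⟩), by
      rw [← C.neg_val]; exact congrArg Fin.val (C.S.neg_neg r)⟩)

theorem G1_le_of_YL {M : Subgroup (D.group K)} (Ls : List (List ℕ))
    (h1 : ∀ i : Fin D.rank, ∃ L ∈ Ls, OrbList D pl i L)
    (h2 : ∀ L ∈ Ls, YL (σ.twist T hfix) L ≤ M ∧ YL (σ.twist T hfix) (L.map D.neg) ≤ M) :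
    (σ.twist T hfix).G1 ≤ M :=
  Split.Twist.G1_le _ (fun i => by
    obtain ⟨L, hL, h⟩ := h1 i
    exact (UJ_eq_YL σ T hfix h).le.trans (h2 L hL).1) fun i => by
    obtain ⟨L, hL, h⟩ := h1 i
    exact (VJ_le_YL σ T hfix h).trans (h2 L hL).2

theorem YL_single {M : Subgroup (D.group K)} (hM : M ≤ (σ.twist T hfix).fix) {δ : ℕ}
    (hδ : δ < D.nroots) (h1 : ρ δ = δ) (φ : K →+* K) (h2 : ∀ t, σ.f δ t = φ t) (F : K → K)
    (h3 : ∀ t, C.xg K δ (F t) ∈ M) (h4 : ∀ a t, φ a = a → F (a * t) = a * F t) (h5 : ∃ t, F t ≠ 0) :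
    YL (σ.twist T hfix) [δ] ≤ M := by
  have key : ∀ t, C.xg K δ t ∈ (σ.twist T hfix).fix → φ t = t := fun t ht => by
    have : σ.σ _ = _ := ht
    rw [σ.map δ hδ, h1, h2] at this
    exact Cert.xg_injective hδ this
  intro y hy
  obtain ⟨s, rfl⟩ := (mem_YL_one (r := ⟨δ, hδ⟩)).1 ⟨hy.1, rfl⟩
  obtain ⟨t, ht⟩ := h5
  have := h3 (s / F t * t)
  rwa [h4 _ _ (by rw [map_div₀, key s hy.2, key _ (hM (h3 t))]), div_mul_cancel₀ _ ht] at this

end hom

theorem two_gen_of_twGrp {G : Subgroup (GL D.Idx K)} (X : TwGrp C K G) {a b : D.group K}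
    (ha : a ∈ X.τ.G1) (hb : b ∈ X.τ.G1) (h : X.τ.G1 ≤ Subgroup.closure {a, b}) :
    ∃ a b : G, Subgroup.closure {a, b} = ⊤ := by
  obtain ⟨a, rfl⟩ := X.j_range.ge ha
  obtain ⟨b, rfl⟩ := X.j_range.ge hb
  refine ⟨a, b, Subgroup.map_injective X.j_inj (le_antisymm (Subgroup.map_mono le_top) ?_)⟩
  rw [← MonoidHom.range_eq_map, X.j_range, MonoidHom.map_closure, Set.image_pair]
  exact h

theorem two_gen_tw1 {G : Subgroup (GL D.Idx K)} (X : TwGrp C K G) {L l : List ℕ} {r : Fin D.nroots}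
    (hr : RP X.τ L r) (hL : ∀ k ∈ L, D.IsPosRoot k) (hl : LW X.τ X.τ.G1 l) (c : Fin D.rank → Kˣ)
    (hc : C.tg K c ∈ X.τ.G1) (g1 : Good (torChar D c r : K))
    (g2 : torChar D c (l.reverse.foldr D.reflectRoot r) ≠ 1)
    (H : ∀ M ≤ X.τ.fix, YL X.τ L ≤ M → LW X.τ M l → X.τ.G1 ≤ M) :
    ∃ a b : G, Subgroup.closure {a, b} = ⊤ := by
  obtain ⟨n, hn, hf, hG, hl⟩ := hl
  obtain ⟨x, hx, h⟩ := hr.stage_one
  have hb := mul_mem (mul_mem (YL_le_G1 (Or.inl hL) hx) (one_mem _)) hG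
  have := h (Subgroup.closure {C.tg K c, x * 1 * n}) c 1 n (X.τ.G1_le_fix hc) hn hf
    (Commute.one_right _) (fun _ _ => Commute.one_left _) (Subgroup.subset_closure (by simp))
    (Subgroup.subset_closure (by simp)) g1 (by rwa [hl.reverse.apply])
  exact two_gen_of_twGrp X hc hb (H _ ((Subgroup.closure_le _).2 (Set.pair_subset
    (X.τ.G1_le_fix hc) (X.τ.G1_le_fix hb))) this.1 ⟨n, hn, hf, by simpa using this.2, hl⟩)

theorem two_gen_tw2 {G : Subgroup (GL D.Idx K)} (X : TwGrp C K G) {L L' l : List ℕ}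
    {r s : Fin D.nroots} (hr : RP X.τ L r) (hs : RP X.τ L' s) (hL : ∀ k ∈ L, D.IsPosRoot k)
    (hL' : ∀ k ∈ L', D.IsPosRoot k)
    (hLL : ∀ r ∈ L, ∀ s ∈ L', s ≠ r ∧ s ≠ D.neg r ∧ D.commTerms r s = [])
    (hl : LW X.τ X.τ.G1 l) (c : Fin D.rank → Kˣ)
    (hc : C.tg K c ∈ X.τ.G1) (g0 : ∀ k ∈ L', torChar D c k = 1) (g1 : Good (torChar D c r : K))
    (g2 : torChar D c (l.reverse.foldr D.reflectRoot r) ≠ 1)
    (g3 : Good (torChar D c (l.foldr D.reflectRoot s) : K))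
    (g4 : torChar D c (l.reverse.foldr D.reflectRoot s) ≠ 1)
    (H : ∀ M, YL X.τ L ≤ M → YL X.τ L' ≤ M → LW X.τ M l → X.τ.G1 ≤ M) :
    ∃ a b : G, Subgroup.closure {a, b} = ⊤ := by
  obtain ⟨n, hn, hf, hG, hl⟩ := hl
  obtain ⟨x, hx, h⟩ := hr.stage_one
  obtain ⟨z, hz, h'⟩ := hs.stage_two
  have hb := mul_mem (mul_mem (YL_le_G1 (Or.inl hL) hx) (YL_le_G1 (Or.inl hL') hz)) hG
  have h1 := h (Subgroup.closure {C.tg K c, x * z * n}) c z n (X.τ.G1_le_fix hc) hn hf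
    (commute_tg_YL g0 hz) (fun _ hy => commute_YL (fun r hr s hs => by simp [hLL r hr s hs]) hy hz)
    (Subgroup.subset_closure (by simp)) (Subgroup.subset_closure (by simp)) g1
    (by rwa [hl.reverse.apply])
  have h2 := h' _ c n (X.τ.G1_le_fix hc) hn hf (commute_tg_YL g0 hz)
    (Subgroup.subset_closure (by simp)) h1.2 (by rwa [hl.apply]) (by rwa [hl.reverse.apply])
  exact two_gen_of_twGrp X hc hb (H _ h1.1 h2.1 ⟨n, hn, hf, h2.2, hl⟩)

end Cfsg.Agent.H40
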